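import Cfsg.Agent.XSC.Suz3A
import Cfsg.Agent.XSC.SuzInv2
import Cfsg.Agent.Comp.MatClass
import Cfsg.Agent.Class.Orth.POrder
import Cfsg.Agent.Grp.Fitting

/-!
The subgroups of order three in the centraliser of a central involution of the Suzuki group whose
commutator with the extraspecial subgroup has order eight.
-/

set_option autoImplicit false

namespace Cfsg.Agent.XSC.Suz3A

open Subgroup Cfsg.Agent.Comp

theorem card_omega : Nat.card (Omega (ZMod 2) (quadFormMinus 2 (ZMod 2) 1 1)) = 25920 := by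
  have hab : ∀ z₁ z₂ : ZMod 2, z₁ ^ 2 + 1 * z₁ * z₂ + 1 * z₂ ^ 2 = 0 → z₁ = 0 ∧ z₂ = 0 := by
    decide
  have := Class.Orth.card_POmega_minus (F := ZMod 2) le_rfl hab
  rw [← Kron.card_Omega_minus_two (by decide) le_rfl hab, Nat.card_zmod] at this
  simpa [Finset.prod_range_succ] using this

variable {A : Type*} [Group A] [Finite A]

theorem sylIn_three {S H : Subgroup A} (hS : S ≤ H) (h3 : IsPGroup 3 S) {n : ℕ}
    (h1 : 3 ^ n ≤ Nat.card S) (h2 : ¬ 3 ^ (n + 1) ∣ Nat.card H) : Fus.SylIn 3 S H := by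
  have : Fact (Nat.Prime 3) := ⟨by norm_num⟩
  refine Fus.sylIn_of_not_dvd_relIndex h3 fun h => h2 ?_
  obtain ⟨k, hk⟩ := IsPGroup.iff_card.1 h3
  rw [← (S.subgroupOf H).card_mul_index, Nat.card_congr (subgroupOfEquivOfLe hS).toEquiv, pow_succ,
    hk]
  exact Nat.mul_dvd_mul (pow_dvd_pow _ ((Nat.pow_le_pow_iff_right (by norm_num)).1 (hk ▸ h1))) h

theorem three_A (e : A ≃* gen Spor.ModelSuz.ns Spor.ModelSuz.G_ss0) {z : A} (hz : orderOf z = 2)
    {Q : Subgroup (centralizer ({z} : Set A))} [Q.Normal] (hF : generalizedFittingSubgroup _ = Q)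
    (hcard : Nat.card Q = 2 ^ 7)
    (f : centralizer ({z} : Set A) ⧸ Q ≃* Omega (ZMod 2) (quadFormMinus 2 (ZMod 2) 1 1))
    {X : Subgroup (centralizer ({z} : Set A))} (hX : Nat.card X = 3) (hQX : Nat.card ↥⁅Q, X⁆ = 8) :
    ∃ e' : A ≃* gen Spor.ModelSuz.ns Spor.ModelSuz.G_ss0,
      X.map (Subgroup.subtype _) = zpowers (ev e' Spor.ModelSuz.ns [6, 8]) := by
  have : Fact (Nat.Prime 3) := ⟨by norm_num⟩
  have hC : Nat.card (centralizer ({z} : Set A)) = 3317760 := by
    rw [card_eq_card_quotient_mul_card_subgroup Q, Nat.card_congr f.toEquiv, card_omega, hcard]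
    norm_num
  have h0 := SuzInv.conj_a e hz (by rw [hC]; norm_num)
  rw [ev_eq_of_take e (ns := SuzInv.ns) (ns' := ns) (k := 7) rfl (by decide +kernel)] at h0
  obtain ⟨e, he⟩ := exists_ev_eq e h0
  have hX' : Nat.card (X.map (Subgroup.subtype _)) = 3 := by
    rwa [card_map_of_injective (subtype_injective _)]
  have key : ∀ e' : A ≃* gen Spor.ModelSuz.ns Spor.ModelSuz.G_ss0, ev e' ns [0] = z →
      ∀ r ∈ rB, ev e' ns r ∉ X.map (Subgroup.subtype _) := fun e' h r hr hx => by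
    have h1 : sub e' ns cws = centralizer {z} :=
      eq_of_le_of_card_ge (h ▸ C_le e') (hC ▸ C_card e')
    have h2 : sub e' ns (ltrs qq) ≤ centralizer {z} := h ▸ Q_le e'
    have h3 : (sub e' ns (ltrs qq)).subgroupOf (centralizer {z}) ≤ Q :=
      ((Grp.le_pCore ((normal_subgroupOf_iff_le_normalizer h2).2 (h1 ▸ C_norm e'))
        (Fus.isPGroup_subgroupOf _ (Q_two e'))).trans (Grp.pCore_le_fitting 2)).trans
        (hF ▸ le_sup_right)
    have h4 := (bad e' r hr).trans (card_le_of_le (commutator_mono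
      ((map_subgroupOf_eq_of_le h2).ge.trans (map_mono h3)) (zpowers_le_of_mem hx)))
    rw [← map_commutator, card_map_of_injective (subtype_injective _), hQX] at h4
    omega
  obtain ⟨g, hg, h1⟩ := (sylIn_three (he ▸ S_le e) (S_three e) (n := 4) (S_card e)
    (by rw [hC]; norm_num)).exists_conj (IsPGroup.of_card (n := 1) hX') (map_subtype_le X)
  obtain ⟨x, hx, h2⟩ := (X.map (Subgroup.subtype _)).bot_or_exists_ne_one.resolve_left
    (fun h => by simp [h] at hX')
  have h3 : orderOf x = 3 := ((Nat.dvd_prime Fact.out).1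
    (hX' ▸ Subgroup.orderOf_dvd_natCard _ hx)).resolve_left (by simpa using h2)
  obtain h4 | ⟨s, hs, r, hr, h4⟩ := S_cls e (h1 x hx) (by
    rw [conj_pow, ← h3, pow_orderOf_eq_one]; group)
  · exact absurd (by rwa [mul_inv_eq_one, mul_eq_left] at h4) h2
  have h5 : x = (s⁻¹ * g)⁻¹ * ev e ns r * (s⁻¹ * g) := by
    calc x = g⁻¹ * (g * x * g⁻¹) * g := by group
      _ = _ := by rw [h4]; group
  rw [reps, appendR_eq, List.mem_append] at hr
  rcases hr with hr | hr
  · obtain ⟨k, -, t, ht, h6⟩ := (qs e).of_cjAll cjA r hr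
    rw [List.mem_singleton] at ht
    rw [ht, ev_eq e (u := [6, 8]) (by decide +kernel)] at h6
    obtain ⟨e', h7⟩ := exists_ev_eq e (ns := Spor.ModelSuz.ns) (u := [6, 8]) (x := x)
      (isConj_iff.2 ⟨(s⁻¹ * g)⁻¹ * k, by rw [h5, h6]; group⟩)
    exact ⟨e', h7 ▸ (eq_of_le_of_card_ge (zpowers_le_of_mem hx) (by
      rw [Nat.card_zpowers, h3, hX'])).symm⟩
  · refine absurd ?_ (key ((MulAut.conj (s⁻¹ * g)).trans e) ?_ r hr)
    · rwa [ev_conj, ← h5]
    · rw [ev_conj, he, mul_assoc, ← mem_centralizer_singleton_iff.1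
        (mul_mem (inv_mem (he ▸ S_le e hs)) hg), inv_mul_cancel_left]

end Cfsg.Agent.XSC.Suz3A
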