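import Cfsg.Agent.XSC.Suz57
import Cfsg.Agent.Small.Tools
import Cfsg.Agent.Class.PSL2Small
import Cfsg.Agent.Grp.AutCard

/-!
# Sylow 5- and 7-normalisers of the sporadic Suzuki group
-/

set_option autoImplicit false

namespace Cfsg.Agent.XSC

open Cfsg.Agent.Comp Subgroup

section General

variable {G : Type*} [Group G]

theorem exists_hom_zmod {c : G} {n : ℕ} [NeZero n] (h : orderOf c = n) :
    ∃ f : Multiplicative (ZMod n) →* G, Function.Injective f ∧ f.range = zpowers c := by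
  let e : Multiplicative (ZMod n) ≃* zpowers c := mulEquivOfCyclicCardEq (by
    rw [Nat.card_zpowers, h]; simp)
  exact ⟨(zpowers c).subtype.comp e.toMonoidHom, (subtype_injective _).comp e.injective, by
    rw [MonoidHom.range_comp, MonoidHom.range_eq_top.2 e.surjective, ← MonoidHom.range_eq_map,
      range_subtype]⟩

theorem perm3_aux : ∀ g : Equiv.Perm (Fin 3), g ≠ 1 → ∃ h : Equiv.Perm (Fin 3),
    g * h ≠ h * g ∧ ∃ k : Equiv.Perm (Fin 3),
      k * (g * h * g⁻¹ * h⁻¹) * k⁻¹ = Equiv.swap 0 1 * Equiv.swap 1 2 := by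
  decide +kernel

theorem exists_hom_four_sym3 {c s t : G} (h1 : c ^ 4 = 1) (h2 : c ^ 2 ≠ 1) (h3 : s * s = 1)
    (h4 : t * t = 1) (h5 : s * t * s = t * s * t) (h6 : s * t ≠ 1) (h7 : Commute c s)
    (h8 : Commute c t) :
    ∃ ψ : Multiplicative (ZMod 4) × Equiv.Perm (Fin 3) →* G, Function.Injective ψ := by
  have : Fact (Nat.Prime 2) := ⟨Nat.prime_two⟩
  obtain ⟨f, hf, hr⟩ := exists_hom_zmod (c := c) (n := 4)
    (orderOf_eq_prime_pow (p := 2) (n := 1) (by simpa using h2) (by simpa using h1))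
  obtain ⟨φ, hφ⟩ := KSG.exists_hom_perm_of_rels (n := 2) ![s, t]
    (by intro i; fin_cases i <;> simp [h3, h4])
    (by intro i j; fin_cases i <;> fin_cases j <;> simp)
    (by intro i j; fin_cases i <;> fin_cases j <;> simp [h5])
  have e1 : φ (Equiv.swap 0 1) = s := hφ 0
  have e2 : φ (Equiv.swap 1 2) = t := hφ 1
  have hi : Function.Injective φ := (injective_iff_map_eq_one φ).2 fun g hg => by
    by_contra hne
    obtain ⟨h, -, k, e⟩ := perm3_aux g hne
    exact h6 (by rw [← e1, ← e2, ← map_mul, ← e]; simp [hg])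
  have hc : ∀ m n, Commute (f m) (φ n) := fun m n => by
    obtain ⟨k, hk⟩ : f m ∈ zpowers c := hr ▸ ⟨m, rfl⟩
    rw [← hk]
    refine Commute.zpow_left ?_ k
    have : ∀ g : Equiv.Perm (Fin 3), g = 1 ∨ g = Equiv.swap 0 1 ∨ g = Equiv.swap 1 2 ∨
        g = Equiv.swap 0 1 * Equiv.swap 1 2 ∨ g = Equiv.swap 1 2 * Equiv.swap 0 1 ∨
        g = Equiv.swap 0 1 * Equiv.swap 1 2 * Equiv.swap 0 1 := by decide +kernel
    rcases this n with rfl | rfl | rfl | rfl | rfl | rfl <;>
      simp [e1, e2, h7, h8, Commute.mul_right]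
  refine ⟨f.noncommCoprod φ hc, (MonoidHom.noncommCoprod_injective f φ hc).2 ⟨hf, hi, ?_⟩⟩
  rw [disjoint_def]
  rintro _ ⟨m, rfl⟩ ⟨g, hg⟩
  by_contra hne
  obtain ⟨h, h9, -⟩ := perm3_aux g fun e => hne (by rw [← hg, e, map_one])
  exact h9 (hi (by rw [map_mul, map_mul, hg, (hc m h).eq]))

theorem exists_equiv_seven_alt4 [Finite G] (hG : Nat.card G = 84) {b x y : G} (hb : orderOf b = 7)
    (hc : ∀ g, Commute b g) (h1 : x ^ 3 = 1) (h2 : y ^ 2 = 1) (h3 : (x * y) ^ 3 = 1) (h4 : y ≠ 1) :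
    Nonempty (G ≃* Multiplicative (ZMod 7) × alternatingGroup (Fin 4)) := by
  obtain ⟨f, hf, hr⟩ := exists_hom_zmod hb
  obtain ⟨H, ⟨e⟩⟩ := Class.Dickson.exists_alt4_of_rels h1 h2 h3 h4
  have h12 : Nat.card (alternatingGroup (Fin 4)) = 12 := by
    rw [nat_card_alternatingGroup]; simp [Nat.factorial]
  let φ := H.subtype.comp e.symm.toMonoidHom
  have hi : Function.Injective φ := (subtype_injective _).comp e.symm.injective
  have hcm : ∀ m n, Commute (f m) (φ n) := fun m n => by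
    obtain ⟨k, hk⟩ : f m ∈ zpowers b := hr ▸ ⟨m, rfl⟩
    exact hk ▸ (hc _).zpow_left k
  refine ⟨(MulEquiv.ofBijective (f.noncommCoprod φ hcm) ((Nat.bijective_iff_injective_and_card _).2
    ⟨(MonoidHom.noncommCoprod_injective f φ hcm).2 ⟨hf, hi, ?_⟩, ?_⟩)).symm⟩
  · rw [disjoint_iff]
    refine inf_eq_bot_of_coprime ?_
    rw [hr, Nat.card_zpowers, hb, ← Nat.card_congr (MonoidHom.ofInjective hi).toEquiv, h12]
    norm_num
  · rw [Nat.card_prod, h12, hG]; simp

end General

namespace Suz57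

variable {A : Type*} [Group A] (e : A ≃* gen Spor.ModelSuz.ns Spor.ModelSuz.G_ss0)
include e

theorem card_A : Nat.card A = 448345497600 := (Nat.card_congr e.toEquiv).trans hn

theorem sylow7 [Fact (Nat.Prime 7)] (B : Sylow 7 A) :
    Nonempty (centralizer ((B : Subgroup A) : Set A) ≃*
      Multiplicative (ZMod 7) × alternatingGroup (Fin 4)) ∧
    Nat.card (normalizer ((B : Subgroup A) : Set A)) = 504 := by
  have := mo.finite e
  have hB : Nat.card (B : Subgroup A) = 7 :=
    Small.card_sylow_subgroup (k := 1) (m := 64049356800) (card_A e) (by norm_num) B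
  have h0 : Nat.card (sub e ns [[14]]) = 7 := by rw [sub7, Nat.card_zpowers, ord7]
  obtain ⟨e, he⟩ := exists_sub_eq_sylow e B (IsPGroup.of_card (n := 1) h0) (by rw [hB, h0])
  have h1 := cent7 e
  rw [he] at h1
  rw [sub7] at he
  have hm : ∀ g, Commute g (ev e ns [14]) → g ∈ centralizer ((B : Subgroup A) : Set A) := by
    intro g hg y hy
    obtain ⟨k, rfl⟩ : y ∈ zpowers (ev e ns [14]) := he ▸ hy
    exact (hg.zpow_right k).symm.eq
  constructor
  · obtain ⟨x, y, h2, h3, h4, h5, h6, h7⟩ := data7 e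
    exact exists_equiv_seven_alt4 h1 (b := ⟨_, hm _ (Commute.refl _)⟩) (x := ⟨x, hm x h6⟩)
      (y := ⟨y, hm y h7⟩) (by rw [← Subgroup.orderOf_coe]; exact ord7 e)
      (fun g => Subtype.ext (g.2 _ (he.le (mem_zpowers _)))) (Subtype.ext h2) (Subtype.ext h3)
      (Subtype.ext h4) fun h => h5 (congrArg Subtype.val h)
  · have h2 := Small.card_sylow_mul_card_normalizer B
    have h3 := Small.card_centralizer_mul_relIndex (B : Subgroup A)
    have h4 := Small.relIndex_centralizer_dvd_card_mulAut (B : Subgroup A)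
    have : IsCyclic (B : Subgroup A) := isCyclic_of_prime_card hB
    rw [IsCyclic.card_mulAut, hB, Nat.totient_prime Fact.out] at h4
    have h5 := card_sylow_modEq_one 7 A
    rw [card_A e, ← h3, h1] at h2
    rw [← h3, h1]
    have h6 := Nat.le_of_dvd (by norm_num) h4
    unfold Nat.ModEq at h5
    generalize (centralizer ((B : Subgroup A) : Set A)).relIndex _ = m at h2 h4 h6
    interval_cases m <;> omega

theorem sylow5 [Fact (Nat.Prime 5)] (P : Sylow 5 A) :
    (∃ X Y : Subgroup A, Nat.card X = 5 ∧ Nat.card Y = 5 ∧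
      (∀ g : A, X.map (MulAut.conj g).toMonoidHom ≠ Y) ∧ ∀ C : Subgroup A, Nat.card C = 5 →
        ∃ g : A, C.map (MulAut.conj g).toMonoidHom = X ∨ C.map (MulAut.conj g).toMonoidHom = Y) ∧
    Nat.card (P : Subgroup A) = 25 ∧ Nat.card (normalizer ((P : Subgroup A) : Set A)) = 600 ∧
    Nonempty (normalizer ((P : Subgroup A) : Set A) ⧸
      (P : Subgroup A).subgroupOf (normalizer ((P : Subgroup A) : Set A)) ≃*
        Multiplicative (ZMod 4) × Equiv.Perm (Fin 3)) := by
  have := mo.finite e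
  have hP : Nat.card (P : Subgroup A) = 25 :=
    Small.card_sylow_subgroup (k := 2) (m := 17933819904) (card_A e) (by norm_num) P
  obtain ⟨e, he⟩ := exists_sub_eq_sylow e P (grp5 e) (hP ▸ card5 e)
  have hc := comm5 e
  have h1 := cent5 e
  have hcl := @cls5 _ _ e
  have hd := data5 e
  rw [he] at hc h1 hcl hd
  have hC : centralizer ((P : Subgroup A) : Set A) = P :=
    (eq_of_le_of_card_ge hc (by rw [h1, hP])).symm
  obtain ⟨o1, o2⟩ := ord5 e
  have hq : Nat.card (normalizer ((P : Subgroup A) : Set A) ⧸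
      (P : Subgroup A).subgroupOf (normalizer ((P : Subgroup A) : Set A))) =
      (centralizer ((P : Subgroup A) : Set A)).relIndex (normalizer ((P : Subgroup A) : Set A)) := by
    rw [hC]; rfl
  obtain ⟨c, s, t, a1, a2, a3, a4, a5, a6, a7, a8⟩ := hd
  obtain ⟨ψ, hψ⟩ := exists_hom_four_sym3 a1 a2 a3 a4 a5 a6 a7 a8
  have h24 : Nat.card (Multiplicative (ZMod 4) × Equiv.Perm (Fin 3)) = 24 := by
    simp [Fintype.card_perm, Nat.factorial]
  have hi : Function.Injective ((QuotientGroup.mk' ((P : Subgroup A).subgroupOf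
      (normalizer ((P : Subgroup A) : Set A)))).comp ψ) :=
    (injective_iff_map_eq_one _).2 fun g hg => by
      have h2 : (ψ g : A) ∈ (P : Subgroup A) := (QuotientGroup.eq_one_iff (ψ g)).1 hg
      have h3 := Subgroup.orderOf_dvd_natCard _ h2
      rw [Subgroup.orderOf_coe, orderOf_injective ψ hψ, hP] at h3
      exact orderOf_eq_one_iff.1 (Nat.eq_one_of_dvd_coprimes (by norm_num : Nat.Coprime 25 24) h3
        (h24 ▸ orderOf_dvd_natCard g))
  have hm : (centralizer ((P : Subgroup A) : Set A)).relIndex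
      (normalizer ((P : Subgroup A) : Set A)) = 24 := by
    have h2 := Small.card_sylow_mul_card_normalizer P
    have h3 := Small.card_centralizer_mul_relIndex (P : Subgroup A)
    have h4 := Small.relIndex_centralizer_dvd_card_mulAut (P : Subgroup A)
    rw [Grp.card_mulAut_of_elemAb (p := 5) (r := 2) (fun x y => Subtype.ext (hc y.2 x x.2))
      (fun x => Subtype.ext ?_) hP] at h4
    · have h5 := card_sylow_modEq_one 5 A
      have h6 := card_dvd_of_injective _ hi
      rw [h24, hq] at h6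
      rw [card_A e, ← h3, h1] at h2
      unfold Nat.ModEq at h5
      obtain ⟨k, hk⟩ := h6
      rw [hk] at h2 h4 ⊢
      have h7 : k ∣ 20 := Nat.dvd_of_mul_dvd_mul_left (by norm_num : 0 < 24) h4
      have h8 := Nat.le_of_dvd (by norm_num) h7
      interval_cases k <;> omega
    · obtain ⟨g, u, hu, h5⟩ := hcl x.2
      change (x : A) ^ 5 = 1
      rw [h5, conj_pow]
      simp only [List.mem_cons, List.not_mem_nil, or_false] at hu
      rcases hu with rfl | rfl | rfl
      · simp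
      · rw [← o1, pow_orderOf_eq_one]; simp
      · rw [← o2, pow_orderOf_eq_one]; simp
  refine ⟨⟨zpowers (ev e ns [56]), zpowers (ev e ns [58]), by rw [Nat.card_zpowers, o1],
    by rw [Nat.card_zpowers, o2], fun g hg => ?_, fun C hC' => ?_⟩, hP, ?_,
    ⟨(MulEquiv.ofBijective _ ((Nat.bijective_iff_injective_and_card _).2
      ⟨hi, by rw [h24, hq, hm]⟩)).symm⟩⟩
  · have h2 : g * ev e ns [56] * g⁻¹ ∈ zpowers (ev e ns [58]) :=
      hg ▸ mem_map_of_mem (MulAut.conj g).toMonoidHom (mem_zpowers _)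
    rw [← mem_powers_iff_mem_zpowers] at h2
    obtain ⟨i, hi'⟩ := h2
    refine nconj5 e (i % 5) (Nat.mod_lt _ (by norm_num)) (isConj_iff.2 ⟨g, ?_⟩)
    rw [← o2, pow_mod_orderOf]
    exact hi'.symm
  · obtain ⟨x, hx⟩ := (isCyclic_of_prime_card hC').exists_zpow_surjective
    have h2 : C = zpowers (x : A) := le_antisymm (fun y hy => by
      obtain ⟨k, hk⟩ := hx ⟨y, hy⟩
      exact ⟨k, congrArg Subtype.val hk⟩) (zpowers_le_of_mem x.2)
    obtain ⟨g, -, h3⟩ := (Fus.sylIn_top P).exists_conj (IsPGroup.of_card (n := 1) hC') le_top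
    obtain ⟨k, u, hu, h5⟩ := hcl (h3 x x.2)
    have h6 : C.map (MulAut.conj (k⁻¹ * g)).toMonoidHom = zpowers (ev e ns u) := by
      rw [h2, MonoidHom.map_zpowers]
      congr 1
      change k⁻¹ * g * x * (k⁻¹ * g)⁻¹ = _
      calc k⁻¹ * g * x * (k⁻¹ * g)⁻¹ = k⁻¹ * (g * x * g⁻¹) * k := by group
        _ = _ := by rw [h5]; group
    simp only [List.mem_cons, List.not_mem_nil, or_false] at hu
    rcases hu with rfl | rfl | rfl
    · rw [ev_nil, zpowers_one_eq_bot, map_eq_bot_iff_of_injective _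
        (MulAut.conj (k⁻¹ * g)).injective] at h6
      rw [h6, card_bot] at hC'
      omega
    · exact ⟨_, Or.inl h6⟩
    · exact ⟨_, Or.inr h6⟩
  · rw [← Small.card_centralizer_mul_relIndex, h1, hm]

end Suz57

end Cfsg.Agent.XSC
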